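import Mathlib
import Cfsg.Agent.H303.WfSec
import Cfsg.Agent.H823.NoRCTwF
import Cfsg.Agent.H160.TwF3.Row
import Cfsg.Agent.H71.FldAut
import Cfsg.Agent.H240.BalTwF.Plus

/-!
# S3826: `²F₄(q)`, `q = 2 ^ (2 m + 1) ≥ 8`, `p = 3` (helper303, task 4279 of helper533)

An automorphism of order three fixes a vertex of the octagon (`H160.TwF3.Row.fixC`), hence a vertex of the type of `P_{n1}`
(the order of `P_{n2}` is prime to three); it is not trivial on `O^{2'}(P_{n1}) / O_2 ≅ SL₂(q)`: section kill.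

* `arow_2f4` : `ARow 3 K`, `K ≅ ²F₄(q)`.
-/

set_option autoImplicit false
set_option linter.unusedSectionVars false

namespace Cfsg.Agent.H303.WfTwF

open Subgroup Cfsg
open Cfsg.Agent.SplitTwo Cfsg.Agent.SplitTwo.ZS
open Cfsg.Agent.H823.GateTwo Cfsg.Agent.H823.NfTwF
open Cfsg.Agent.KFacts.TwF4 Cfsg.Agent.TitsThree.RankTwoZ Cfsg.Agent.KFacts.TwF4.Arc
open Cfsg.Agent.H459.Rad Cfsg.Agent.H459.Gallery Cfsg.Agent.H459.Iface
open Cfsg.Agent.KFacts.TwF4.Perf Cfsg.Agent.KFacts.TwF4.SylU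
open Cfsg.Agent.LieExceptional.BNPairCore Cfsg.Agent.Schreier.BNSch
open Cfsg.Agent.H160.TwF3.Row (B_conj par_conj)

universe u v

section Abs

variable {F : Type*} [Field F] [Finite F] {σ : F →+* F} {G : Type u} [Group G] [Finite G] (S : Full σ G)

/-- field automorphisms in coordinates -/
def FL (θ : MulAut G) (τ : F ≃+* F) : Prop :=
  (∀ a t, θ (S.o a t) = S.o a (τ t)) ∧ ∀ a p u, θ (S.e a p u) = S.e a (τ p) (τ u)

variable {S} {θ : MulAut G} {τ : F ≃+* F}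

theorem FL.xz (h : FL S θ τ) (k : ℤ) {x : G} (hx : x ∈ S.XZ k) : θ x ∈ S.XZ k := by
  obtain ⟨a, rfl | rfl⟩ := Int.even_or_odd' k
  · obtain ⟨p, u, rfl⟩ := (S.mem_XZ_even a x).1 hx
    rw [h.2]
    exact (S.mem_XZ_even a _).2 ⟨_, _, rfl⟩
  · obtain ⟨t, rfl⟩ := (S.mem_XZ_odd a x).1 hx
    rw [h.1]
    exact (S.mem_XZ_odd a _).2 ⟨_, rfl⟩

theorem FL.jj (h : FL S θ τ) (a b : ℤ) : Iv θ (J S.XZ a b) := by
  have h1 : J S.XZ a b ≤ (J S.XZ a b).comap θ.toMonoidHom :=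
    J_le fun k h1 h2 y hy => mem_J (h.xz k hy) h1 h2
  exact fun x hx => h1 hx

theorem FL.lo (h : FL S θ τ) : Iv θ S.LO := by
  have h1 : S.LO ≤ (S.LO).comap θ.toMonoidHom :=
    sup_le (fun y hy => Subgroup.mem_sup_left (h.xz 1 hy)) (fun y hy => Subgroup.mem_sup_right (h.xz 9 hy))
  exact fun x hx => h1 hx

theorem FL.en1 (h : FL S θ τ) : θ S.n1 = S.n1 := by
  rw [S.n1_word, map_mul, map_mul, h.1, h.1, map_one]

theorem FL.en2 (h : FL S θ τ) : θ S.n2 = S.n2 := by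
  rw [S.n2_word, map_mul, map_mul, h.2, h.2, h.2, map_one, map_zero]

/-- the normaliser of an invariant subgroup is invariant -/
theorem iv_normalizer {x : MulAut G} {A : Subgroup G} (h : Iv x A) : Iv x (normalizer (A : Set G)) := by
  intro g hg
  rw [mem_normalizer_iff]
  intro y
  have hA : ∀ z, x z ∈ A ↔ z ∈ A := by
    intro z
    refine ⟨fun hz => ?_, h z⟩
    rw [← h.map_eq] at hz
    obtain ⟨w, hw, hwz⟩ := hz
    rwa [← x.injective hwz]
  obtain ⟨z, rfl⟩ := x.surjective y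
  rw [← map_mul, ← map_inv, ← map_mul, hA, hA]
  exact mem_normalizer_iff.1 hg z

theorem iff_of_iv {x : MulAut G} {A : Subgroup G} (h : Iv x A) (z : G) : x z ∈ A ↔ z ∈ A := by
  refine ⟨fun hz => ?_, h z⟩
  rw [← h.map_eq] at hz
  obtain ⟨w, hw, hwz⟩ := hz
  rwa [← x.injective hwz]

/-- the conjugating element of an automorphism preserving `A` -/
theorem mem_of_iv {A : Subgroup G} {g : G} (hθ : Iv θ A) (hx : Iv (MulAut.conj g * θ) A) :
    g ∈ normalizer (A : Set G) := by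
  rw [Subgroup.mem_normalizer_iff_map_conj_eq]
  refine Iv.map_eq (x := MulAut.conj g) fun a ha => ?_
  rw [← hθ.map_eq] at ha
  obtain ⟨b, hb, rfl⟩ := ha
  exact hx b hb

variable {P : BNPair G} (hPB : P.B = normalizer (J S.XZ 1 8 : Set G)) (hPS : P.S = {S.n1, S.n2})

include hPB in
theorem FL.bb (h : FL S θ τ) : Iv θ P.B := by
  rw [hPB]
  exact iv_normalizer (h.jj 1 8)

include hPB in
theorem FL.par (h : FL S θ τ) {s : G} (hs : θ s = s) : Iv θ (P.parabolic {s}) := by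
  have h1 : P.parabolic {s} ≤ (P.parabolic {s}).comap θ.toMonoidHom := by
    refine sup_le (fun y hy => B_le_parabolic P _ (h.bb hPB y hy)) ?_
    rw [closure_le, Set.singleton_subset_iff]
    show θ s ∈ P.parabolic {s}
    rw [hs]
    exact mem_parabolic_self P s
  exact fun x hx => h1 hx

end Abs

section Main

variable {F : Type*} [Field F] [Finite F] {σ : F →+* F} {G : Type u} [Group G] [Finite G] (S : Full σ G)
  {P : BNPair G} (hPB : P.B = normalizer (J S.XZ 1 8 : Set G)) (hPS : P.S = {S.n1, S.n2})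

/-- the product formula for conjugated automorphisms -/
theorem cx_form {x : MulAut G} {g0 g : G} {θ : MulAut G} (hx : x = MulAut.conj g0 * θ) :
    cx x g = MulAut.conj (g⁻¹ * g0 * θ g) * θ := by
  ext k
  rw [cx_apply, hx, MulAut.mul_apply, MulAut.mul_apply, MulAut.conj_apply, MulAut.conj_apply, map_mul, map_mul, map_inv]
  group

theorem cx_cx (x : MulAut G) (g h : G) : cx (cx x g) h = cx x (g * h) := by
  ext k
  rw [cx_apply, cx_apply, cx_apply]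
  have e : g * h * k * (g * h)⁻¹ = g * (h * k * h⁻¹) * g⁻¹ := by group
  rw [e]
  group

theorem cx_pow {x : MulAut G} (g : G) {n : ℕ} (h : x ^ n = 1) : (cx x g) ^ n = 1 := by
  have e : cx x g = (MulAut.conj g)⁻¹ * x * ((MulAut.conj g)⁻¹)⁻¹ := by rw [inv_inv]; rfl
  rw [e, conj_pow, h, mul_one, mul_inv_cancel]

include hPB hPS in
/-- **An automorphism of order three fixes a vertex of the type of `P_{n1}`.** -/
theorem exists_iv (hF : ∃ c : Fˣ, c ≠ 1) (hR : S.R.p = 2) (hirr : P.Irreducible) (h12 : S.n1 ≠ S.n2) {m : ℕ}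
    (hq : Nat.card F = 2 ^ (2 * m + 1))
    (hAut : ∀ x : MulAut G, ∃ (g : G) (θ : MulAut G) (τ : F ≃+* F), x = MulAut.conj g * θ ∧ FL S θ τ)
    {x : MulAut G} (hx : x ^ 3 = 1) : ∃ g, Iv (cx x g) (P.parabolic {S.n1}) := by
  have hf3 : Fact (Nat.Prime 3) := ⟨Nat.prime_three⟩
  have hf2 : Fact (Nat.Prime 2) := ⟨Nat.prime_two⟩
  obtain ⟨g, hg | hg⟩ := Cfsg.Agent.H160.TwF3.Row.fixC S hPB hPS hF hR hirr h12 hx
  · exact ⟨g, fun a ha => by rw [cx_apply]; exact hg a ha⟩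
  -- a vertex of the other type
  obtain ⟨g0, θ, τ, hx0, hθ⟩ := hAut x
  set y := cx x g with hy
  have hy3 : y ^ 3 = 1 := cx_pow g hx
  set P2 : Subgroup G := P.parabolic {S.n2} with hP2
  have hyP : Iv y P2 := fun a ha => by rw [hy, cx_apply]; exact hg a ha
  obtain ⟨U, hU⟩ := exists_sylow S hF hR
  have hUP : (U : Subgroup G) ≤ P2 := by
    rw [hU]
    exact (U_le_B S hPB).trans (B_le_parabolic P _)
  -- the automorphism of `P2`
  let y' : MulAut ↥P2 :=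
    MulEquiv.ofBijective ((y.toMonoidHom.comp P2.subtype).codRestrict P2 (fun a => hyP a a.2))
      ((Finite.injective_iff_bijective).1 fun a b h => Subtype.ext (y.injective (congrArg Subtype.val h)))
  have hy' : ∀ a : ↥P2, ((y' a : ↥P2) : G) = y a := fun a => rfl
  have hy3' : y' ^ 3 = 1 := by
    ext a
    have h1 : ((y' ^ 3) a : ↥P2) = y' (y' (y' a)) := rfl
    rw [h1, hy', hy', hy']
    have h2 : y (y (y (a : G))) = (y ^ 3) a := rfl
    rw [h2, hy3]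
    rfl
  have hpg : IsPGroup 3 (Subgroup.zpowers y') := by
    rintro ⟨_, k, rfl⟩
    refine ⟨1, Subtype.ext ?_⟩
    show (y' ^ k) ^ (3 ^ 1) = 1
    rw [pow_one, ← zpow_natCast, ← zpow_mul, mul_comm, zpow_mul, zpow_natCast, hy3', one_zpow]
  have hcard : ¬ 3 ∣ Nat.card (Sylow 2 ↥P2) := by
    intro hd
    have h1 : Nat.card (Sylow 2 ↥P2) ∣ Nat.card ↥P2 :=
      (Sylow.card_dvd_index (U.subtype hUP)).trans (Subgroup.index_dvd_card _)
    exact Cfsg.Agent.H823.NoRCTwF.not_three_dvd S hF hR hq hPB (hd.trans h1)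
  obtain ⟨Q, hQ⟩ := hpg.nonempty_fixed_point_of_prime_not_dvd_card (Sylow 2 ↥P2) hcard
  have hQ' : y' • Q = Q := hQ ⟨y', Subgroup.mem_zpowers y'⟩
  obtain ⟨h, hh⟩ := MulAction.exists_smul_eq ↥P2 (U.subtype hUP) Q
  -- `h U h⁻¹` is fixed
  have hmemQ : ∀ a : ↥P2, a ∈ (Q : Subgroup ↥P2) ↔ ((h : G)⁻¹ * a * h) ∈ (U : Subgroup G) := by
    intro a
    rw [← hh]
    have h1 : a ∈ ((h • (U.subtype hUP) : Sylow 2 ↥P2) : Subgroup ↥P2) ↔ h⁻¹ * a * h ∈ (U.subtype hUP : Subgroup ↥P2) := by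
      rw [Sylow.coe_subgroup_smul, Subgroup.mem_pointwise_smul_iff_inv_smul_mem]
      rw [← map_inv, MulAut.smul_def, MulAut.conj_apply, inv_inv]
    rw [h1]
    rfl
  have hyQ : ∀ a : ↥P2, a ∈ (Q : Subgroup ↥P2) → y' a ∈ (Q : Subgroup ↥P2) := by
    intro a ha
    have h1 : y' • a ∈ ((y' • Q : Sylow 2 ↥P2) : Subgroup ↥P2) := by
      rw [Sylow.pointwise_smul_def]
      exact Subgroup.smul_mem_pointwise_smul _ _ _ ha
    rw [hQ'] at h1
    exact h1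
  have hzU : Iv (cx x (g * h)) (J S.XZ 1 8) := by
    rw [← cx_cx, ← hy, ← hU]
    intro a ha
    rw [cx_apply]
    have h1 : (h : G) * a * (h : G)⁻¹ ∈ P2 := mul_mem (mul_mem h.2 (hUP ha)) (inv_mem h.2)
    have h2 : (⟨(h : G) * a * (h : G)⁻¹, h1⟩ : ↥P2) ∈ (Q : Subgroup ↥P2) := by
      rw [hmemQ]
      have e : (h : G)⁻¹ * ((h : G) * a * (h : G)⁻¹) * h = a := by group
      show (h : G)⁻¹ * ((h : G) * a * (h : G)⁻¹) * h ∈ (U : Subgroup G)
      rw [e]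
      exact ha
    have h3 := (hmemQ _).1 (hyQ _ h2)
    rw [hy'] at h3
    exact h3
  refine ⟨g * h, ?_⟩
  have hform := cx_form (g := g * h) hx0
  rw [hform] at hzU ⊢
  have hb := mem_of_iv (hθ.jj 1 8) hzU
  rw [← hPB] at hb
  have hbP : (g * ↑h)⁻¹ * g0 * θ (g * ↑h) ∈ P.parabolic {S.n1} := B_le_parabolic P _ hb
  intro a ha
  rw [MulAut.mul_apply, MulAut.conj_apply]
  exact mul_mem (mul_mem hbP (hθ.par hPB hθ.en1 a ha)) (inv_mem hbP)

include hPB hPS in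
theorem LO_le : S.LO ≤ P.parabolic {S.n1} := le_sup_left.trans (HO_le S hPB hPS)

include hPB in
theorem V_conj (hF : ∃ c : Fˣ, c ≠ 1) (hR : S.R.p = 2) :
    ∀ g ∈ P.parabolic {S.n1}, ∀ v ∈ J S.XZ 2 8, g * v * g⁻¹ ∈ J S.XZ 2 8 :=
  par_conj (B_conj S hPB hF hR (by norm_num) (by norm_num) (by norm_num))
    fun v hv => S.n1_refl.mem_J hv (by norm_num) (by norm_num)

include hPB in
theorem mem_par_of_iv {y θ : MulAut G} {g : G} {τ : F ≃+* F} (hPS : P.S = {S.n1, S.n2}) (hy : y = MulAut.conj g * θ)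
    (hθ : FL S θ τ) (hyP : Iv y (P.parabolic {S.n1})) : g ∈ P.parabolic {S.n1} := by
  rw [hy] at hyP
  have h1 := mem_of_iv (hθ.par hPB hθ.en1) hyP
  rwa [Cfsg.Agent.S0312.result P (by rw [hPS]; exact Set.singleton_subset_iff.2 (Set.mem_insert _ _))] at h1

theorem X1_V {x : G} (hx : x ∈ S.XZ 1) (hx' : x ∈ J S.XZ 2 8) : x = 1 :=
  S.zsys8.inter 1 x hx (J_mono (by norm_num) (by norm_num) hx')

include hPB hPS in
/-- **An automorphism of order three preserving `P_{n1}` is not trivial on the Levi section.** -/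
theorem moves (hF : ∃ c : Fˣ, c ≠ 1) (hR : S.R.p = 2) {m : ℕ} (hq : Nat.card F = 2 ^ (2 * m + 1))
    (hZ : center G = ⊥) {y θ : MulAut G} {p : G} {τ : F ≃+* F} (hy : y = MulAut.conj p * θ) (hθ : FL S θ τ)
    (hτ : τ = 1 → θ = 1) (hyP : Iv y (P.parabolic {S.n1})) (hy3 : y ^ 3 = 1) (hy1 : y ≠ 1) :
    ∃ l ∈ S.LO, l⁻¹ * y l ∉ J S.XZ 2 8 := by
  by_contra hcon
  push Not at hcon
  have Z := S.zsys8
  have hpP := mem_par_of_iv S hPB hPS hy hθ hyP
  have hVn := V_conj S hPB hF hR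
  have hyap : ∀ a, y a = p * θ a * p⁻¹ := fun a => by rw [hy, MulAut.mul_apply, MulAut.conj_apply]
  have hyV : Iv y (J S.XZ 2 8) := fun v hv => by
    rw [hyap]
    exact hVn p hpP _ (hθ.jj 2 8 v hv)
  have hyU : Iv y (J S.XZ 1 8) := by
    intro a ha
    obtain ⟨x, hx, v, hv, rfl⟩ := Z.split_ll (a := 1) (b := 8) (by norm_num) (by norm_num) ha
    have h1 := hcon x (mem_sup_left hx)
    have e : y (x * v) = x * (x⁻¹ * y x) * y v := by rw [map_mul]; group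
    rw [e]
    exact mul_mem (mul_mem (mem_J hx le_rfl (by norm_num)) (J_mono (by norm_num) le_rfl h1))
      (J_mono (by norm_num) le_rfl (hyV v hv))
  have hpU : p ∈ normalizer (J S.XZ 1 8 : Set G) := mem_of_iv (hθ.jj 1 8) (by rw [← hy]; exact hyU)
  obtain ⟨b, hb, t, ht, hpbt⟩ := norm_U S hF hR fun x => mem_normalizer_iff.1 hpU x
  obtain ⟨c, d, rfl⟩ := S.mem_T.1 ht
  obtain ⟨x0, hx0, v0, hv0, rfl⟩ := Z.split_ll (a := 1) (b := 8) (by norm_num) (by norm_num) hb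
  obtain ⟨s, rfl⟩ := (mem_X1 S).1 hx0
  have hUn : ∀ u ∈ J S.XZ 1 8, ∀ v ∈ J S.XZ 2 8, u * v * u⁻¹ ∈ J S.XZ 2 8 := fun u hu v hv =>
    hVn u (B_le_parabolic P _ (U_le_B S hPB hu)) v hv
  have hOU : ∀ w, S.o 0 w ∈ J S.XZ 1 8 := fun w => mem_J (S.mX1 w) le_rfl (by norm_num)
  have key : ∀ w : F, (chO σ 0 c d : F) * τ w = w := by
    intro w
    set z : F := (chO σ 0 c d : F) * τ w with hz
    have h1 : y (S.o 0 w) = S.o 0 s * v0 * S.o 0 z * (S.o 0 s * v0)⁻¹ := by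
      rw [hyap, hθ.1, hpbt]
      have h2 := S.h_o c d 0 (τ w)
      rw [← hz] at h2
      rw [← h2]
      group
    have h2 : (S.o 0 z)⁻¹ * (S.o 0 s * v0 * S.o 0 z * (S.o 0 s * v0)⁻¹) ∈ J S.XZ 2 8 := by
      have hcomm : S.o 0 s * S.o 0 z = S.o 0 z * S.o 0 s := by rw [S.o_add, S.o_add, add_comm]
      have e : (S.o 0 z)⁻¹ * (S.o 0 s * v0 * S.o 0 z * (S.o 0 s * v0)⁻¹) =
          (S.o 0 z)⁻¹ * (S.o 0 s * S.o 0 z) * (((S.o 0 z)⁻¹ * v0 * ((S.o 0 z)⁻¹)⁻¹) * v0⁻¹) * (S.o 0 s)⁻¹ := by group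
      rw [e, hcomm, inv_mul_cancel_left]
      exact hUn _ (hOU s) _ (mul_mem (hUn _ (inv_mem (hOU z)) _ hv0) (inv_mem hv0))
    have h3 : (S.o 0 w)⁻¹ * S.o 0 z ∈ J S.XZ 2 8 := by
      have h4 := hcon (S.o 0 w) (mem_sup_left (S.mX1 w))
      rw [h1] at h4
      have e : (S.o 0 w)⁻¹ * S.o 0 z = ((S.o 0 w)⁻¹ * (S.o 0 s * v0 * S.o 0 z * (S.o 0 s * v0)⁻¹)) *
          ((S.o 0 z)⁻¹ * (S.o 0 s * v0 * S.o 0 z * (S.o 0 s * v0)⁻¹))⁻¹ := by group
      rw [e]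
      exact mul_mem h4 (inv_mem h2)
    have h5 := X1_V S (mul_mem (inv_mem (S.mX1 w)) (S.mX1 z)) h3
    rw [inv_mul_eq_one] at h5
    exact (S.injO 0 h5).symm
  have hχ : (chO σ 0 c d : F) = 1 := by
    have := key 1
    rwa [map_one, mul_one] at this
  have hτ1 : τ = 1 := by
    ext w
    have := key w
    rw [hχ, one_mul] at this
    exact this
  have hyc : y = MulAut.conj p := by rw [hy, hτ hτ1, mul_one]
  have hp3 : p ^ 3 = 1 := by
    have h1 : MulAut.conj (p ^ 3) = 1 := by rw [map_pow, ← hyc, hy3]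
    have h2 : p ^ 3 ∈ center G := by
      rw [mem_center_iff]
      intro g
      have h3 : MulAut.conj (p ^ 3) g = g := by rw [h1]; rfl
      rw [MulAut.conj_apply, mul_inv_eq_iff_eq_mul] at h3
      exact h3.symm
    rwa [hZ, mem_bot] at h2
  have hp1 : p ≠ 1 := by
    rintro rfl
    exact hy1 (by rw [hyc, map_one])
  have hf3 : Fact (Nat.Prime 3) := ⟨Nat.prime_three⟩
  have ho : orderOf p = 3 := orderOf_eq_prime hp3 hp1
  have hpP2 : p ∈ P.parabolic {S.n2} := B_le_parabolic P _ (by rw [hPB]; exact hpU)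
  refine Cfsg.Agent.H823.NoRCTwF.not_three_dvd S hF hR hq hPB ?_
  have h1 : orderOf (⟨p, hpP2⟩ : ↥(P.parabolic {S.n2})) = 3 := by rw [← orderOf_injective _ (subtype_injective _)]; exact ho
  rw [← h1]
  exact orderOf_dvd_natCard _

/-- the stabiliser of a subgroup -/
def Mst (A : Subgroup G) : Subgroup (MulAut G) where
  carrier := {γ | ∀ z, γ z ∈ A ↔ z ∈ A}
  one_mem' := fun _ => Iff.rfl
  mul_mem' := fun ha hb z => (ha _).trans (hb z)
  inv_mem' := fun {γ} h z => by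
    have := h (γ⁻¹ z)
    rw [MulAut.apply_inv_self] at this
    exact this.symm

theorem mem_Mst {A : Subgroup G} {γ : MulAut G} (h : Iv γ A) : γ ∈ Mst A := fun z => iff_of_iv h z

include hPB hPS in
/-- `LO V` is normal in `P_{n1}` -/
theorem E_conj (hF : ∃ c : Fˣ, c ≠ 1) (hR : S.R.p = 2) :
    ∀ g ∈ P.parabolic {S.n1}, ∀ x ∈ S.LO ⊔ J S.XZ 2 8, g * x * g⁻¹ ∈ S.LO ⊔ J S.XZ 2 8 := by
  have Z := S.zsys8
  set E : Subgroup G := S.LO ⊔ J S.XZ 2 8 with hE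
  have hn : P.parabolic {S.n1} ≤ normalizer (E : Set G) := by
    refine sup_le ?_ ?_
    · intro g hg
      rw [hPB] at hg
      obtain ⟨b, hb, t, ht, rfl⟩ := norm_U S hF hR fun x => mem_normalizer_iff.1 hg x
      obtain ⟨x, hx, v, hv, rfl⟩ := Z.split_ll (a := 1) (b := 8) (by norm_num) (by norm_num) hb
      refine mul_mem (mul_mem (le_normalizer (mem_sup_left (mem_sup_left hx))) (le_normalizer (mem_sup_right hv))) ?_
      rw [Subgroup.mem_normalizer_iff_map_conj_eq]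
      refine Iv.map_eq (x := MulAut.conj t) ?_
      have h1 : E ≤ E.comap (MulAut.conj t).toMonoidHom :=
        sup_le (fun y hy => mem_sup_left (S.T_conj_LO ht hy)) (fun y hy => mem_sup_right (S.T_conj_J ht hy))
      exact fun y hy => h1 hy
    · rw [closure_le, Set.singleton_subset_iff]
      exact le_normalizer (mem_sup_left S.n1_mem_LO)
  exact fun g hg x hx => (mem_normalizer_iff.1 (hn hg) x).1 hx

include hPB hPS in
/-- **The row over the coordinates.** -/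
theorem arow (hF : ∃ c : Fˣ, c ≠ 1) (hR : S.R.p = 2) (hirr : P.Irreducible) (h12 : S.n1 ≠ S.n2)
    {m : ℕ} (hm : 1 ≤ m) (hq : Nat.card F = 2 ^ (2 * m + 1))
    (hAut : ∀ x : MulAut G, ∃ (g : G) (θ : MulAut G) (τ : F ≃+* F), x = MulAut.conj g * θ ∧ FL S θ τ ∧ (τ = 1 → θ = 1)) :
    H533.Wf.ARow 3 G := by
  have Z := S.zsys8
  have hf3 : Fact (Nat.Prime 3) := ⟨Nat.prime_three⟩
  intro Γ C D h
  have hAut' : ∀ x : MulAut G, ∃ (g : G) (θ : MulAut G) (τ : F ≃+* F), x = MulAut.conj g * θ ∧ FL S θ τ := fun x => by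
    obtain ⟨g, θ, τ, h1, h2, -⟩ := hAut x
    exact ⟨g, θ, τ, h1, h2⟩
  have hZ : center G = ⊥ := h.center_eq_bot
  have hLP := LO_le S hPB hPS
  have hVn := V_conj S hPB hF hR
  have hx1 : S.o 0 1 ≠ 1 := fun h => one_ne_zero (S.o_eq_one h)
  have hfin : ∀ (x : MulAut G) (g : G) (A : Set (MulAut G)), (∀ g ∈ Γ, ∀ c ∈ A, g * c * g⁻¹ ∈ A) → x ∈ A → cx x g ∈ A := by
    intro x g A hA hx
    have h1 := hA (MulAut.conj g)⁻¹ (inv_mem (h.inn ⟨g, rfl⟩)) x hx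
    rw [inv_inv] at h1
    exact h1
  have hmove : ∀ y : MulAut G, orderOf y = 3 → Iv y (P.parabolic {S.n1}) → ∃ l ∈ S.LO, l⁻¹ * y l ∉ J S.XZ 2 8 := by
    intro y hy hyP
    obtain ⟨g, θ, τ, h1, h2, h3⟩ := hAut y
    refine moves S hPB hPS hF hR hq hZ h1 h2 h3 hyP (by rw [← hy]; exact pow_orderOf_eq_one y) ?_
    rintro rfl
    rw [orderOf_one] at hy
    omega
  obtain ⟨c, hc⟩ := h.neC
  obtain ⟨d, hd⟩ := h.neD
  obtain ⟨g, hg⟩ := exists_iv S hPB hPS hF hR hirr h12 hq hAut' (x := c)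
    (by rw [← h.ordC c hc]; exact pow_orderOf_eq_one c)
  obtain ⟨k, hk⟩ := exists_iv S hPB hPS hF hR hirr h12 hq hAut' (x := d)
    (by rw [← h.ordD d hd]; exact pow_orderOf_eq_one d)
  have hc' := hfin c g C h.conjC hc
  have hd' := hfin d k D h.conjD hd
  refine WfSec.false_of_section h (M := Mst (P.parabolic {S.n1})) (V := J S.XZ 2 8) (L := S.LO) ?_ ?_ ?_ ?_ ?_
    (Cfsg.Agent.H240.BalTwF.simple_LO S ?_) ?_ ⟨S.o 0 1, mem_sup_left (S.mX1 1), fun h1 => hx1 (X1_V S (S.mX1 1) h1)⟩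
    hc' hd' (mem_Mst hg) (mem_Mst hk) (hmove _ (h.ordC _ hc') hg) (hmove _ (h.ordD _ hd') hk)
  · intro h1
    obtain ⟨y, hy, hy1⟩ := Z.exists_ne 2
    have h2 : y ∈ J S.XZ 2 8 := mem_J hy le_rfl (by norm_num)
    rw [h1, mem_bot] at h2
    exact hy1 h2
  · intro h1
    exact hx1 (X1_V S (S.mX1 1) (by rw [h1]; exact mem_top _))
  · intro γ hγ v hv
    obtain ⟨g0, θ, τ, e, hθ, -⟩ := hAut γ
    have hγP : Iv γ (P.parabolic {S.n1}) := fun a ha => (hγ a).2 ha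
    have h1 := mem_par_of_iv S hPB hPS e hθ hγP
    rw [e, MulAut.mul_apply, MulAut.conj_apply]
    exact hVn _ h1 _ (hθ.jj 2 8 v hv)
  · intro γ hγ l hl
    obtain ⟨g0, θ, τ, e, hθ, -⟩ := hAut γ
    have hγP : Iv γ (P.parabolic {S.n1}) := fun a ha => (hγ a).2 ha
    have h1 := mem_par_of_iv S hPB hPS e hθ hγP
    have h2 : γ l ∈ S.LO ⊔ J S.XZ 2 8 := by
      rw [e, MulAut.mul_apply, MulAut.conj_apply]
      exact E_conj S hPB hPS hF hR _ h1 _ (mem_sup_left (hθ.lo l hl))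
    exact mem_sup_of_norm (fun a ha b hb => hVn a (hLP ha) b hb) h2
  · intro l hl z
    rw [MulAut.conj_apply]
    have hl' := hLP hl
    refine ⟨fun h1 => ?_, fun h1 => mul_mem (mul_mem hl' h1) (inv_mem hl')⟩
    have e : z = l⁻¹ * (l * z * l⁻¹) * l := by group
    rw [e]
    exact mul_mem (mul_mem (inv_mem hl') h1) hl'
  · rw [hq]
    exact (by norm_num : 4 ≤ 2 ^ 3).trans (Nat.pow_le_pow_right (by norm_num) (by omega))
  · intro hcm
    have h1 : (⟨S.n1, S.n1_mem_LO⟩ : S.LO) * ⟨S.o 0 1, mem_sup_left (S.mX1 1)⟩ =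
        ⟨S.o 0 1, mem_sup_left (S.mX1 1)⟩ * ⟨S.n1, S.n1_mem_LO⟩ := hcm.is_comm.comm _ _
    have h2 : S.n1 * S.o 0 1 = S.o 0 1 * S.n1 := congrArg Subtype.val h1
    have h3 : S.n1 * S.o 0 1 * S.n1⁻¹ ∈ S.XZ (1 + 8) := S.n1_refl.mem' (S.mX1 1) (by norm_num)
    rw [h2, mul_inv_cancel_right] at h3
    exact hx1 (S.X_inf_opp (S.mX1 1) h3)

end Main

/-! ### The groups `²F₄(q)` -/

section Final

open Cfsg.Lie
open Cfsg.Agent.KFacts.TwF4.Inst
open Cfsg.Agent.ChevalleyStructure.TwF4.TwistedFix (Rln)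

variable {F : Type} [Field F] [Fintype F] {m : ℕ}

theorem fld_one' {e : ℕ} : S2128.fld (1 : F ≃+* F) e = 1 := by
  ext g : 1
  apply Subtype.ext
  rw [S2128.coe_fld]
  apply Units.ext
  ext i j
  rfl

/-- **The row `²F₄(q)`, `q ≥ 8`, `p = 3`.** -/
theorem arow_2f4 (hm : 1 ≤ m) (hK : Fintype.card F = 2 ^ (2 * m + 1)) : H533.Wf.ARow 3 ↥(twistedF4 F (2 ^ m)) := by
  have hch : CharP F 2 := Cfsg.Agent.ChevalleyStructure.F4Fixed.charP_two hK
  have hfin : Finite ↥(twistedF4 F (2 ^ m)) := inferInstance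
  obtain ⟨φ, hφ⟩ := Cfsg.Agent.ChevalleyStructure.TwF4.TwistedFix.exists_rln hK
  have hF := Cfsg.Agent.H160.TwF3.Row.exists_unit hm hK
  obtain ⟨P, hB, hN, hirr, hS⟩ := Cfsg.Agent.ChevalleyStructure.TwF4.BNIrred.exists_bnPair_irreducible hφ
  set S := full hK hφ with hSdef
  have hR : S.R.p = 2 := rfl
  have hU : Cfsg.Agent.Schreier.TwFFour.U0 F (2 ^ m) = J S.XZ 1 8 := by
    rw [U0_eq hφ]
    apply le_antisymm
    · refine iSup₂_le fun k hk => ?_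
      have h1 : S.XZ (k : ℤ) ≤ J S.XZ 1 8 := X_le_J (by exact_mod_cast hk.1) (by exact_mod_cast hk.2)
      refine le_trans (le_of_eq ?_) h1
      show S.R.X ((k : ℕ) : ZMod (2 * 8)) = S.R.X (((k : ℕ) : ℤ) : ZMod (2 * 8))
      rw [Int.cast_natCast]
    · refine J_le fun k h1 h2 => ?_
      obtain ⟨n, rfl⟩ := Int.eq_ofNat_of_zero_le (show 0 ≤ k by omega)
      have h3 := le_iSup₂ (f := fun (k : ℕ) (_ : k ∈ Set.Icc (1 : ℕ) 8) =>
        Cfsg.Agent.Octagon.KSys.XX F (2 ^ m) ((k : ℕ) : ZMod (2 * 8))) n ⟨by exact_mod_cast h1, by exact_mod_cast h2⟩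
      refine le_trans (le_of_eq ?_) h3
      show S.R.X (((n : ℕ) : ℤ) : ZMod (2 * 8)) = S.R.X ((n : ℕ) : ZMod (2 * 8))
      rw [Int.cast_natCast]
  have hPB : P.B = normalizer (J S.XZ 1 8 : Set ↥(twistedF4 F (2 ^ m))) := by
    rw [← hU, U0_normal_B hφ, hB]
    rfl
  have hPS : P.S = {S.n1, S.n2} := hS
  have h12 : S.n1 ≠ S.n2 := by
    intro h
    obtain ⟨y, hy, hy1⟩ := S.zsys8.exists_ne 1
    have h1 := S.n1_refl.mem' (k := 9) hy (by norm_num)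
    have h2 := S.n2_refl.mem' (k := 7) hy (by norm_num)
    rw [← h] at h2
    have h3 := S.X_inf_near (i := 7) (j := 9) (by norm_num) (by norm_num) h2 h1
    exact hy1 (conj_eq_one_iff.1 h3)
  refine arow S hPB hPS hF hR hirr h12 hm (by rw [Nat.card_eq_fintype_card, hK]) fun x => ?_
  obtain ⟨g, τ, hx⟩ := Cfsg.Agent.H71.FldAut.twF4_aut hm hK x
  refine ⟨g, S2128.fld τ (2 ^ m), τ, hx, ⟨fun a t => S2128.fld_ro _ hφ a t, fun a p u => S2128.fld_re _ hφ a p u⟩, ?_⟩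
  rintro rfl
  exact fld_one'

/-- **The row `²F₄(q)`, `q ≥ 8`, `p = 3`.** -/
theorem wfRow_2f4 {K : Type v} [Group K] (h : Cfsg.Lie.Iso2F4 K) : H533.Wf.WfRow.{u, v} 3 K := by
  obtain ⟨F, _, _, m, hm, hcard, ⟨e⟩⟩ := h
  rintro G _ _ S C D hc ⟨f⟩
  exact H533.Wf.WfRow.of_arow.{u, 0} (arow_2f4 hm hcard) G S C D hc ⟨f.trans e⟩

end Final

end Cfsg.Agent.H303.WfTwF
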